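import Cfsg.Agent.H526.ObParity

/-!
# Parity criterion with elements of one order (helper547)
-/

set_option autoImplicit false

namespace Cfsg.Agent.H547.OB

open Cfsg Cfsg.Agent Cfsg.Agent.H526.OB

/-- **Parity criterion**: `K` a conjugation-closed set, `w` any element, `r` an odd prime, no elements of order `2 r`. -/
theorem nb_of_parity {G : Type*} [Group G] [Finite G] {r : ℕ} (hr : r.Prime) (hr2 : r ≠ 2)
    (h2r : ∀ g : G, orderOf g ≠ 2 * r) {K : Set G} (hK : ∀ g : G, ∀ k ∈ K, g * k * g⁻¹ ∈ K) {w : G} (hw : orderOf w = r)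
    (hc : ¬ Nat.card {k : G // k ∈ K ∧ orderOf (k * w) = r} ≡ Nat.card {k : G // k ∈ K} [MOD 2]) : NB G := by
  classical
  intro M hM
  by_contra hcon
  push Not at hcon
  obtain ⟨e, he⟩ := H612.SectionR.exists_OE (G := G)
  have hX : ∀ g : G, ∀ x ∈ {x : G | orderOf x = r}, g * x * g⁻¹ ∈ {x : G | orderOf x = r} := by
    intro g x hx
    have : orderOf (g * x * g⁻¹) = orderOf x :=
      orderOf_injective (MulAut.conj g).toMonoidHom (MulAut.conj g).injective x
    exact this.trans hx
  have hXo : ∀ x ∈ {x : G | orderOf x = r}, Odd (orderOf x) := by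
    intro x hx
    have hx' : orderOf x = r := hx
    rw [hx']; exact hr.odd_of_ne_two hr2
  have h1 := OneB.parity hM hcon he hK hX hXo w
  have hwX : w ^ e ∈ {x : G | orderOf x = r} := (orderOf_pow_eq_iff he hr hr2 h2r w).2 hw
  rw [if_pos hwX, mul_one] at h1
  have h2 : Nat.card {k : G // k ∈ K ∧ (k * w) ^ e ∈ {x : G | orderOf x = r}} =
      Nat.card {k : G // k ∈ K ∧ orderOf (k * w) = r} := by
    refine Nat.card_congr (Equiv.subtypeEquivRight fun k => ?_)
    exact and_congr_right fun _ => orderOf_pow_eq_iff he hr hr2 h2r (k * w)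
  rw [h2] at h1
  apply hc
  rw [← Int.natCast_modEq_iff]
  exact ((Int.modEq_iff_dvd.2 (by simpa using h1)).symm)

end Cfsg.Agent.H547.OB
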